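import Cfsg.Agent.Lib.SFourFree.Offender

/-!
# Offenders inducing abelian `2`-groups in a `2`-separable group are best offenders

Let `V` be a normal elementary abelian `2`-subgroup of the finite `2`-separable group `G`, with
`O₂(G / C_G(V)) = 1`.  Any `2`-subgroup `A` such that `A / C_A(V)` is abelian and
`|V| |C_A(V)| ≤ |A| |C_V(A)|` is a best offender.
-/

set_option autoImplicit false
set_option linter.unusedSectionVars false
set_option linter.unusedSimpArgs false
set_option linter.style.haveILetI false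

open scoped commutatorElement

namespace Cfsg.Agent.Lib.SolvFF.Core

open Cfsg.Agent.Lib.QuadAct.Replacement Cfsg.Agent.Lib.QuadAct.Basic
open Cfsg.Agent.Lib.QuadAct.FFBasic Cfsg.Agent.Lib.QuadAct.FFQuot
open Cfsg.Agent.Lib.QuadAct.FFTrans Cfsg.Agent.Lib.QuadAct.FFPlane
open Cfsg.Agent.Lib.QuadAct.FFDicho Cfsg.Agent.Lib.QuadAct.FFMin Cfsg.Agent.Lib.QuadAct.FFSL2
open Cfsg.Agent.Lib.SFourFree.Offender
open Cfsg.Agent.Lib.Core.Basic Cfsg.Agent.Lib.Core.PSolvable
open Cfsg.Agent.Lib.Coprime.Action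

universe u v

section step

variable {Γ : Type u} [Group Γ] [Finite Γ] {M : Type v} [AddCommGroup M]
  [Module (ZMod 2) M] [Finite M] {ρ : Γ →* Module.End (ZMod 2) M}

theorem zmod2_cases : ∀ c : ZMod 2, c = 0 ∨ c = 1 := by decide

theorem add_self_eq (m : M) : m + m = 0 := by
  have := pow_smul_eq (p := 2) m
  rwa [two_nsmul] at this

theorem rho_injective (y : Γ) : Function.Injective (ρ y) := by
  intro m n h
  have := congrArg (ρ y⁻¹) h
  rwa [rho_inv_apply_cancel, rho_inv_apply_cancel] at this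

/-- An element commuting with a transvection acts on the plane of the transvection like `1` or
like the transvection. -/
theorem act_plane {O : Subgroup Γ} {a x : Γ} {e : M} {f : M →ₗ[ZMod 2] ZMod 2}
    (C : Ctx ρ O a e f x) {y : Γ} (hy : y * a = a * y) :
    (∀ π ∈ pl (p := 2) e (ρ x e), ρ y π = π) ∨ (∀ π ∈ pl (p := 2) e (ρ x e), ρ (y * a) π = π) := by
  have hT := C.tv
  -- `y` fixes `e`
  have hye : ρ y e = e := by
    have h1 := hT.conj y
    have h2 : y * a * y⁻¹ = a := by rw [hy]; group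
    rw [h2] at h1
    obtain ⟨c, hc⟩ := TV.line_unique hT h1
    rcases zmod2_cases c with h | h
    · exfalso
      rw [h, zero_smul] at hc
      apply hT.e0
      apply rho_injective (ρ := ρ) y
      rw [hc, map_zero]
    · rwa [h, one_smul] at hc
  -- `y` normalizes `cls O a`
  have hOn := C.hOn
  have hcls : ∀ g ∈ cls O a, y * g * y⁻¹ ∈ cls O a := by
    intro g hg
    induction hg using Subgroup.closure_induction with
    | mem g hg =>
      obtain ⟨z, hz, rfl⟩ := hg
      refine Subgroup.subset_closure ⟨y * z * y⁻¹, hOn.conj_mem z hz y, ?_⟩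
      have h2 : y * a * y⁻¹ = a := by rw [hy]; group
      calc y * (z * a * z⁻¹) * y⁻¹ = (y * z * y⁻¹) * (y * a * y⁻¹) * (y * z * y⁻¹)⁻¹ := by group
        _ = _ := by rw [h2]
    | one => simp [(cls O a).one_mem]
    | mul u v _ _ hu hv =>
      have : y * (u * v) * y⁻¹ = (y * u * y⁻¹) * (y * v * y⁻¹) := by group
      rw [this]
      exact (cls O a).mul_mem hu hv
    | inv u _ hu =>
      have : y * u⁻¹ * y⁻¹ = (y * u * y⁻¹)⁻¹ := by group
      rw [this]
      exact (cls O a).inv_mem hu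
  have hcomm : ∀ w ∈ Cfsg.Agent.Lib.QuadAct.FFDicho.comm ρ (cls O a), ρ y w ∈ Cfsg.Agent.Lib.QuadAct.FFDicho.comm ρ (cls O a) := by
    intro w hw
    unfold Cfsg.Agent.Lib.QuadAct.FFDicho.comm at hw ⊢
    induction hw using Submodule.span_induction with
    | mem w hw =>
      obtain ⟨g, hg, w₀, rfl⟩ := hw
      refine Submodule.subset_span ⟨y * g * y⁻¹, hcls g hg, ρ y w₀, ?_⟩
      rw [map_sub, map_mul, map_mul, Module.End.mul_apply, Module.End.mul_apply,
        rho_inv_apply_cancel]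
    | zero => rw [map_zero]; exact Submodule.zero_mem _
    | add u v _ _ hu hv => rw [map_add]; exact Submodule.add_mem _ hu hv
    | smul c u _ hu => rw [map_smul]; exact Submodule.smul_mem _ c hu
  have hpl : ∀ w ∈ pl (p := 2) e (ρ x e), ρ y w ∈ pl (p := 2) e (ρ x e) := by
    rw [← comm_eq_pl C]
    exact hcomm
  have hmem := hpl _ (right_mem_pl e (ρ x e))
  obtain ⟨α, β, hαβ⟩ := Submodule.mem_span_pair.mp hmem
  -- `β = 1`
  have hβ : β = 1 := by
    rcases zmod2_cases β with h | h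
    · exfalso
      rw [h, zero_smul, add_zero] at hαβ
      have h1 : ρ y (ρ x e) = ρ y (α • e) := by rw [map_smul, hye, hαβ]
      have h2 := rho_injective (ρ := ρ) y h1
      have h3 : α • e + (1 : ZMod 2) • ρ x e = 0 := by
        rw [h2, one_smul, add_self_eq]
      have := (Ctx.indep C h3).2
      exact one_ne_zero this
    · exact h
  have hfe' : f (ρ x e) = 1 := by
    rcases zmod2_cases (f (ρ x e)) with h | h
    · exact absurd h C.nondeg.1
    · exact h
  rcases zmod2_cases α with hα | hα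
  · left
    rw [hα, hβ, zero_smul, zero_add, one_smul] at hαβ
    intro π hπ
    obtain ⟨s, t, rfl⟩ := Submodule.mem_span_pair.mp hπ
    rw [map_add, map_smul, map_smul, hye, ← hαβ]
  · right
    rw [hα, hβ, one_smul, one_smul] at hαβ
    have h1 : ρ (y * a) e = e := by
      rw [map_mul, Module.End.mul_apply, hT.apply, hT.fe, zero_smul, add_zero, hye]
    have h2 : ρ (y * a) (ρ x e) = ρ x e := by
      rw [map_mul, Module.End.mul_apply, hT.apply, hfe', one_smul, map_add, hye, ← hαβ]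
      rw [show e + ρ x e + e = ρ x e + (e + e) by abel, add_self_eq, add_zero]
    intro π hπ
    obtain ⟨s, t, rfl⟩ := Submodule.mem_span_pair.mp hπ
    rw [map_add, map_smul, map_smul, h1, h2]

end step

section main

variable {G : Type u} [Group G] [Finite G] {V : Subgroup G} [hVn : V.Normal]

/-- The bound `|A| |C_V(A)| ≤ |V| |C_A(V)|`. -/
theorem offProd_le (hsep : Cfsg.IsPSolvable 2 G) (hV : Cfsg.IsElementaryAbelian 2 V)
    (hO : Cfsg.pCore 2 (G ⧸ Subgroup.centralizer (V : Set G)) = ⊥) {A : Subgroup G}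
    (hab : ⁅A, A⁆ ≤ Subgroup.centralizer (V : Set G)) :
    offProd V A ≤ Nat.card V * Nat.card ↥(A ⊓ Subgroup.centralizer (V : Set G)) := by
  classical
  have hAV : ∀ X : Subgroup G, X ≤ Subgroup.normalizer (V : Set G) := fun X => by
    rw [Subgroup.normalizer_eq_top_iff.mpr hVn]
    exact le_top
  obtain ⟨B, hBA, hBmax⟩ := Set.exists_max_image {B : Subgroup G | B ≤ A} (fun B => offProd V B)
    (Set.toFinite _) ⟨A, le_refl A⟩
  have hBA' : B ≤ A := hBA
  have hbest : IsBest V B := fun D hD => hBmax D (hD.trans hBA')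
  have hBab : ⁅B, B⁆ ≤ Subgroup.centralizer (V : Set G) :=
    (Subgroup.commutator_mono hBA' hBA').trans hab
  obtain ⟨h1, -⟩ := replacement_of_best hV.1 (hAV B) hBab hbest (le_refl V)
  set Q := B ⊓ Subgroup.centralizer ((⁅V, B⁆ : Subgroup G) : Set G) with hQ
  have hQB : Q ≤ B := inf_le_left
  have hQbest : Cfsg.IsBestOffenderOn 2 V Q := by
    refine ⟨fun D hD => ?_, (Subgroup.commutator_mono hQB hQB).trans hBab, fun b hb => ?_⟩
    · have h2 : offProd V D ≤ offProd V B := hbest D (hD.trans hQB)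
      rw [← h1] at h2
      exact h2
    · refine pow_mem_centralizer_of_quadratic hV (hAV Q hb) fun u hu => ?_
      have h2 := Subgroup.mem_centralizer_iff.mp hb.2 ⁅u, b⁆
        (Subgroup.commutator_mem_commutator hu hb.1)
      exact h2.symm
  obtain ⟨M, _, _, _, ρ, ι, D⟩ := exists_coordQ (p := 2) hV
  have hsep' : Cfsg.IsPSolvable 2 (G ⧸ Subgroup.centralizer (V : Set G)) :=
    isPSolvable_of_surjective _ piV_surj hsep
  have hS1 := Cfsg.Agent.Lib.QuadAct.Sections.centralizer_pPrimeCore_le hsep' hO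
  have h3 := jj_eq_card D.faith hS1 (best_map_of_isBest D hQbest)
  rw [jj_map' D, D.card_M] at h3
  have h4 := card_eq_map_mul_inf (piV V) Q
  rw [piV_ker] at h4
  have h5 : Nat.card ↥(Q ⊓ Subgroup.centralizer (V : Set G)) ≤
      Nat.card ↥(A ⊓ Subgroup.centralizer (V : Set G)) :=
    Subgroup.card_le_of_le (inf_le_inf_right _ (hQB.trans hBA'))
  calc offProd V A ≤ offProd V B := hBmax A (le_refl A)
    _ = offProd V Q := h1.symm
    _ = Nat.card V * Nat.card ↥(Q ⊓ Subgroup.centralizer (V : Set G)) := by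
        unfold offProd
        rw [h4, ← h3]
        ring
    _ ≤ _ := Nat.mul_le_mul_left _ h5

/-- An offender inducing an abelian `2`-group induces an elementary abelian group. -/
theorem sq_mem_of_offender (hsep : Cfsg.IsPSolvable 2 G) (hV : Cfsg.IsElementaryAbelian 2 V)
    (hO : Cfsg.pCore 2 (G ⧸ Subgroup.centralizer (V : Set G)) = ⊥) :
    ∀ (n : ℕ) (A : Subgroup G), Nat.card A = n → ⁅A, A⁆ ≤ Subgroup.centralizer (V : Set G) →
      IsPGroup 2 A →
      Nat.card V * Nat.card ↥(A ⊓ Subgroup.centralizer (V : Set G)) ≤ offProd V A →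
      ∀ y ∈ A, y ^ 2 ∈ Subgroup.centralizer (V : Set G) := by
  intro n
  induction n using Nat.strong_induction_on with
  | _ n ih =>
  intro A hn hab hAp hoff y hy
  by_cases hne : A ≤ Subgroup.centralizer (V : Set G)
  · exact Subgroup.pow_mem _ (hne hy) 2
  obtain ⟨M, _, _, _, ρ, ι, D⟩ := exists_coordQ (p := 2) hV
  have hAV : A ≤ Subgroup.normalizer (V : Set G) := by
    rw [Subgroup.normalizer_eq_top_iff.mpr hVn]
    exact le_top
  have hsep' : Cfsg.IsPSolvable 2 (G ⧸ Subgroup.centralizer (V : Set G)) :=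
    isPSolvable_of_surjective _ piV_surj hsep
  have hS1 := Cfsg.Agent.Lib.QuadAct.Sections.centralizer_pPrimeCore_le hsep' hO
  obtain ⟨B, hBA, hB, hBC⟩ := exists_best_of_offender hV hAV hab hAp hne hoff
  have hY := best_map_of_isBest D hB
  have hYne : B.map (piV V) ≠ ⊥ := by
    intro h
    apply hBC
    have h1 : B ≤ (piV V).ker := (Subgroup.map_eq_bot_iff _).mp h
    rwa [piV_ker] at h1
  obtain ⟨B', hB'B, hB'⟩ := exists_minBest_le hY hYne
  obtain ⟨a, hz, e, f, hT⟩ := exists_TV D.faith hS1 hB'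
  have haB : a ∈ B.map (piV V) := hB'B (by rw [hz]; exact Subgroup.mem_zpowers a)
  obtain ⟨t, htB, rfl⟩ := haB
  have htA : t ∈ A := hBA htB
  obtain ⟨x, C⟩ := exists_ctx D.faith (inferInstance : (Cfsg.pPrimeCore 2 _).Normal)
    pPrimeCore_coprime hS1 hT
  set P := pl (p := 2) e (ρ x e) with hP
  set A' : Subgroup G := A ⊓ (stab ρ P).comap (piV V) with hA'
  have hA'A : A' ≤ A := inf_le_left
  have hcomm : ∀ y ∈ A, piV V y * piV V t = piV V t * piV V y := by
    intro y hy
    have h1 := Subgroup.commutator_mem_commutator hy htA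
    have h2 := hab h1
    have h3 : piV V ⁅y, t⁆ = 1 := by
      rw [← MonoidHom.mem_ker, piV_ker]
      exact h2
    rw [commutatorElement_def, map_mul, map_mul, map_mul, map_inv, map_inv] at h3
    have h4 : piV V y * piV V t * (piV V y)⁻¹ = piV V t := mul_inv_eq_one.mp h3
    rw [mul_inv_eq_iff_eq_mul] at h4
    exact h4
  have hsplit : ∀ y ∈ A, y ∈ A' ∨ y * t ∈ A' := by
    intro y hy
    rcases act_plane C (hcomm y hy) with h | h
    · exact Or.inl ⟨hy, h⟩
    · refine Or.inr ⟨A.mul_mem hy htA, ?_⟩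
      show piV V (y * t) ∈ stab ρ P
      rw [map_mul]
      exact h
  have hfe' : f (ρ x e) ≠ 0 := C.nondeg.1
  have ht_move : ρ (piV V t) (ρ x e) ≠ ρ x e := by
    rw [hT.apply]
    intro h
    have h1 : f (ρ x e) • e = 0 := by simpa using h
    rcases smul_eq_zero.mp h1 with h2 | h2
    · exact hfe' h2
    · exact hT.e0 h2
  have htA' : t ∉ A' := fun h => ht_move (h.2 _ (right_mem_pl e (ρ x e)))
  have hidx : A'.relIndex A = 2 := by
    show (A'.subgroupOf A).index = 2
    rw [Subgroup.index_eq_two_iff]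
    refine ⟨⟨t, htA⟩, fun b => ?_⟩
    have hb := hsplit b b.2
    by_cases hb1 : (b : G) ∈ A'
    · refine Or.inr ⟨hb1, fun h1 => htA' ?_⟩
      have h3 : ((b : G) * t) ∈ A' := h1
      have := A'.mul_mem (A'.inv_mem hb1) h3
      simpa using this
    · rcases hb with h2 | h2
      · exact absurd h2 hb1
      · exact Or.inl ⟨h2, hb1⟩
  have hcard : Nat.card A = Nat.card A' * 2 := by
    rw [← hidx]
    exact Cfsg.Agent.Lib.Coprime.Action.card_eq_card_mul_relIndex hA'A
  have hA'pos : 0 < Nat.card A' := Nat.card_pos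
  have hlt : Nat.card A' < n := by
    rw [← hn, hcard]
    omega
  have hab' : ⁅A', A'⁆ ≤ Subgroup.centralizer (V : Set G) :=
    (Subgroup.commutator_mono hA'A hA'A).trans hab
  have hAp' : IsPGroup 2 A' := hAp.to_le hA'A
  have hinf : A' ⊓ Subgroup.centralizer (V : Set G) = A ⊓ Subgroup.centralizer (V : Set G) := by
    apply le_antisymm (inf_le_inf_right _ hA'A)
    rintro g ⟨hg, hgC⟩
    refine ⟨⟨hg, ?_⟩, hgC⟩
    have h1 : piV V g = 1 := by
      rw [← MonoidHom.mem_ker, piV_ker]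
      exact hgC
    show piV V g ∈ stab ρ P
    rw [h1]
    exact Subgroup.one_mem _
  have hfix : fix ρ (A.map (piV V)) < fix ρ (A'.map (piV V)) := by
    refine lt_of_le_of_ne (fix_anti (Subgroup.map_mono hA'A)) fun h => ?_
    have h1 : ρ x e ∈ fix ρ (A'.map (piV V)) := by
      rintro _ ⟨g, hg, rfl⟩
      exact hg.2 _ (right_mem_pl e (ρ x e))
    rw [← h] at h1
    exact ht_move (h1 _ (Subgroup.mem_map_of_mem _ htA))
  have hfixcard := card_mul_le_of_lt hfix
  rw [card_fix_map D, card_fix_map D] at hfixcard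
  have hoff' : Nat.card V * Nat.card ↥(A' ⊓ Subgroup.centralizer (V : Set G)) ≤ offProd V A' := by
    rw [hinf]
    refine hoff.trans ?_
    unfold offProd
    rw [hcard]
    calc Nat.card A' * 2 * Nat.card ↥(V ⊓ Subgroup.centralizer (A : Set G))
        = Nat.card A' * (Nat.card ↥(V ⊓ Subgroup.centralizer (A : Set G)) * 2) := by ring
      _ ≤ _ := Nat.mul_le_mul_left _ hfixcard
  have hIH := ih _ hlt A' rfl hab' hAp' hoff'
  rcases hsplit y hy with h | h
  · exact hIH y h
  · have h1 := hIH _ h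
    have hat : piV V t ^ 2 = 1 := Cfsg.Agent.Lib.QuadAct.Sections.pow_char_eq_one D.faith hT.quad
    have h2 : piV V ((y * t) ^ 2) = 1 := by
      rw [← MonoidHom.mem_ker, piV_ker]
      exact h1
    have h3 : Commute (piV V y) (piV V t) := hcomm y hy
    rw [map_pow, map_mul, h3.mul_pow, hat, mul_one, ← map_pow, ← MonoidHom.mem_ker, piV_ker] at h2
    exact h2

/-- An offender inducing an abelian `2`-group is a best offender. -/
theorem isBestOffenderOn_of_offender (hsep : Cfsg.IsPSolvable 2 G)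
    (hV : Cfsg.IsElementaryAbelian 2 V)
    (hO : Cfsg.pCore 2 (G ⧸ Subgroup.centralizer (V : Set G)) = ⊥) {A : Subgroup G}
    (hab : ⁅A, A⁆ ≤ Subgroup.centralizer (V : Set G)) (hAp : IsPGroup 2 A)
    (hoff : Nat.card V * Nat.card ↥(A ⊓ Subgroup.centralizer (V : Set G)) ≤ offProd V A) :
    Cfsg.IsBestOffenderOn 2 V A := by
  refine ⟨fun B hB => ?_, hab, sq_mem_of_offender hsep hV hO _ A rfl hab hAp hoff⟩
  have h1 := offProd_le hsep hV hO ((Subgroup.commutator_mono hB hB).trans hab)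
  have h2 : Nat.card ↥(B ⊓ Subgroup.centralizer (V : Set G)) ≤
      Nat.card ↥(A ⊓ Subgroup.centralizer (V : Set G)) :=
    Subgroup.card_le_of_le (inf_le_inf_right _ hB)
  exact h1.trans ((Nat.mul_le_mul_left _ h2).trans hoff)

end main

section structure_thm

variable {Γ : Type u} [Group Γ] [Finite Γ] {M : Type v} [AddCommGroup M]
  [Module (ZMod 2) M] [Finite M] {ρ : Γ →* Module.End (ZMod 2) M}

/-- A faithful group with self-centralizing `O_{2'}` generated by best offenders is a direct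
product of copies of `S₃`. -/
theorem exists_equiv_pi (hρ : Function.Injective ρ)
    (hS1 : Subgroup.centralizer (Cfsg.pPrimeCore 2 Γ : Set Γ) ≤ Cfsg.pPrimeCore 2 Γ)
    (hgen : ∀ g : Γ, g ∈ ⨆ A : {A : Subgroup Γ // Best ρ A}, (A : Subgroup Γ)) :
    ∃ n : ℕ, Nonempty (Γ ≃* (Fin n → Equiv.Perm (Fin 3))) := by
  classical
  have hcl := closure_tvs' hρ hS1 hgen
  set O := Cfsg.pPrimeCore 2 Γ with hO
  let κ := {E : Subgroup Γ // ∃ (c : Γ) (e : M) (f : M →ₗ[ZMod 2] ZMod 2) (x : Γ),
    Ctx ρ O c e f x ∧ E = cls O c}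
  let Ef : κ → Subgroup Γ := fun E => E.1
  have hEf : ∀ i, ∃ (c : Γ) (e₂ : M) (f₂ : M →ₗ[ZMod 2] ZMod 2) (x₂ : Γ),
      Ctx ρ O c e₂ f₂ x₂ ∧ Ef i = cls O c := fun i => i.2
  have hinj : Function.Injective Ef := Subtype.val_injective
  have hind : iSupIndep Ef := family_indep hEf hinj
  have hcomm : Pairwise fun i j : κ => ∀ (x y : Γ), x ∈ Ef i → y ∈ Ef j → Commute x y := by
    intro i j hij x y hx hy
    exact (family_pair hEf hinj hij).1 x hx y hy
  have hsup : (⨆ i, Ef i) = ⊤ := by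
    rw [eq_top_iff, ← hcl, Subgroup.closure_le]
    rintro c ⟨e, f, hc⟩
    obtain ⟨x, C⟩ := exists_ctx hρ (inferInstance : O.Normal) pPrimeCore_coprime hS1 hc
    exact Subgroup.mem_iSup_of_mem (⟨cls O c, c, e, f, x, C, rfl⟩ : κ) (self_mem_cls O c)
  haveI : Fintype κ := Fintype.ofFinite κ
  have hinj2 := Subgroup.injective_noncommPiCoprod_of_iSupIndep (hcomm := hcomm) hind
  have hsurj : Function.Surjective (Subgroup.noncommPiCoprod hcomm) := by
    rw [← MonoidHom.range_eq_top, Subgroup.noncommPiCoprod_range, hsup]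
  let e₁ : (∀ i : κ, Ef i) ≃* Γ := MulEquiv.ofBijective _ ⟨hinj2, hsurj⟩
  have hfac : ∀ i : κ, Nonempty (Ef i ≃* Equiv.Perm (Fin 3)) := by
    intro i
    obtain ⟨c, e, f, x, C, h⟩ := hEf i
    obtain ⟨e'⟩ := nonempty_sl22_equiv
    rw [h]
    exact ⟨(Ctx.phiEquiv C).trans e'⟩
  let e₂ : (∀ i : κ, Ef i) ≃* (κ → Equiv.Perm (Fin 3)) :=
    MulEquiv.piCongrRight fun i => (hfac i).some
  refine ⟨Fintype.card κ, ⟨e₁.symm.trans (e₂.trans ?_)⟩⟩
  exact MulEquiv.arrowCongr (Fintype.equivFin κ) (MulEquiv.refl _)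

end structure_thm

end Cfsg.Agent.Lib.SolvFF.Core
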