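import Cfsg.Agent.Lib.SolvFF.Core
import Cfsg.Agent.Lib.Solvable.Fitting
import Cfsg.Agent.Lib.Core.SylowFacts
import Cfsg.Agent.Lib.Core.PSolvable2

/-!
# Thompson factorization in solvable groups with `F(X) = O₂(X)`
-/

set_option autoImplicit false
set_option linter.unusedSectionVars false
set_option linter.unusedSimpArgs false
set_option linter.style.haveILetI false

open scoped commutatorElement

namespace Cfsg.Agent.Lib.SolvFF.Main

open Cfsg.Agent.Lib.SolvFF.Core
open Cfsg.Agent.Lib.QuadAct.Replacement Cfsg.Agent.Lib.QuadAct.Basic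
open Cfsg.Agent.Lib.QuadAct.FFBasic Cfsg.Agent.Lib.QuadAct.FFQuot
open Cfsg.Agent.Lib.SFourFree.Offender
open Cfsg.Agent.Lib.Core.Basic

universe u

variable {X : Type u} [Group X] [Finite X]

/-- The abelian subgroups of largest order of `T`, as subgroups of `X`. -/
def AT (T : Subgroup X) : Set (Subgroup X) :=
  {A | A ≤ T ∧ IsMulCommutative A ∧ ∀ B : Subgroup X, B ≤ T → IsMulCommutative B →
    Nat.card B ≤ Nat.card A}

theorem isMulCommutative_of_le {A B : Subgroup X} (hA : IsMulCommutative A) (h : B ≤ A) :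
    IsMulCommutative B :=
  ⟨⟨fun a b => Subtype.ext (comm_of_isMulCommutative hA (h a.2) (h b.2))⟩⟩

theorem thompsonA_eq (T : Subgroup X) : Cfsg.thompsonSubgroupAOf T = sSup (AT T) := by
  apply le_antisymm
  · unfold Cfsg.thompsonSubgroupAOf Cfsg.thompsonSubgroupA
    rw [Subgroup.map_le_iff_le_comap]
    refine sSup_le fun A hA => ?_
    rw [← Subgroup.map_le_iff_le_comap]
    refine le_sSup ⟨Subgroup.map_subtype_le _, ?_, fun B hBT hBc => ?_⟩
    · obtain ⟨⟨hc⟩⟩ := hA.1
      refine ⟨⟨?_⟩⟩
      rintro ⟨_, a, ha, rfl⟩ ⟨_, b, hb, rfl⟩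
      apply Subtype.ext
      have h := congrArg Subtype.val (hc ⟨a, ha⟩ ⟨b, hb⟩)
      have h' : (a : T) * b = b * a := h
      show T.subtype a * T.subtype b = T.subtype b * T.subtype a
      rw [← map_mul, ← map_mul, h']
    · have h1 : IsMulCommutative (B.subgroupOf T) := by
        refine ⟨⟨fun a b => ?_⟩⟩
        apply Subtype.ext
        apply Subtype.ext
        exact comm_of_isMulCommutative hBc a.2 b.2
      have h2 := hA.2 _ h1
      have h3 : Nat.card (B.subgroupOf T) = Nat.card B :=
        Nat.card_congr (Subgroup.subgroupOfEquivOfLe hBT).toEquiv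
      have h4 : Nat.card (A.map T.subtype) = Nat.card A :=
        (Nat.card_congr (Subgroup.equivMapOfInjective _ _ T.subtype_injective).toEquiv).symm
      rw [h4, ← h3]
      exact h2
  · refine sSup_le fun A hA => ?_
    have h0 : (A.subgroupOf T).map T.subtype = A := Subgroup.map_subgroupOf_eq_of_le hA.1
    rw [← h0]
    refine Subgroup.map_mono (le_sSup ⟨?_, fun B hB => ?_⟩)
    · refine ⟨⟨fun a b => ?_⟩⟩
      apply Subtype.ext
      apply Subtype.ext
      exact comm_of_isMulCommutative hA.2.1 a.2 b.2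
    · have h1 : Nat.card (A.subgroupOf T) = Nat.card A :=
        Nat.card_congr (Subgroup.subgroupOfEquivOfLe hA.1).toEquiv
      have h2 : Nat.card (B.map T.subtype) = Nat.card B :=
        (Nat.card_congr (Subgroup.equivMapOfInjective _ _ T.subtype_injective).toEquiv).symm
      rw [h1, ← h2]
      refine hA.2.2 _ (Subgroup.map_subtype_le _) ?_
      obtain ⟨⟨hc⟩⟩ := hB
      refine ⟨⟨?_⟩⟩
      rintro ⟨_, a, ha, rfl⟩ ⟨_, b, hb, rfl⟩
      apply Subtype.ext
      have h := congrArg Subtype.val (hc ⟨a, ha⟩ ⟨b, hb⟩)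
      have h' : (a : T) * b = b * a := h
      show T.subtype a * T.subtype b = T.subtype b * T.subtype a
      rw [← map_mul, ← map_mul, h']

theorem AT_conj {T : Subgroup X} {S : Subgroup X} (hST : S ≤ T) {A : Subgroup X} (hA : A ∈ AT T)
    (hAS : A ≤ S) {g : X} (hg : g ∈ Subgroup.normalizer (S : Set X)) :
    A.map (MulAut.conj g).toMonoidHom ∈ AT T := by
  have hcard : Nat.card (A.map (MulAut.conj g).toMonoidHom) = Nat.card A :=
    (Nat.card_congr (Subgroup.equivMapOfInjective _ _ (MulAut.conj g).injective).toEquiv).symm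
  refine ⟨?_, ?_, fun B hB hBc => ?_⟩
  · rintro _ ⟨a, ha, rfl⟩
    exact hST ((Subgroup.mem_normalizer_iff.mp hg a).mp (hAS ha))
  · obtain ⟨⟨hc⟩⟩ := hA.2.1
    refine ⟨⟨?_⟩⟩
    rintro ⟨_, a, ha, rfl⟩ ⟨_, b, hb, rfl⟩
    apply Subtype.ext
    have := congrArg Subtype.val (hc ⟨a, ha⟩ ⟨b, hb⟩)
    show (MulAut.conj g).toMonoidHom a * (MulAut.conj g).toMonoidHom b =
      (MulAut.conj g).toMonoidHom b * (MulAut.conj g).toMonoidHom a
    rw [← map_mul, ← map_mul]
    exact congrArg _ this
  · rw [hcard]
    exact hA.2.2 B hB hBc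

/-- The Frattini argument. -/
theorem normalClosure_sup_normalizer (T : Sylow 2 X) :
    Subgroup.normalClosure (Cfsg.thompsonSubgroupAOf (T : Subgroup X) : Set X) ⊔
      Subgroup.normalizer (Cfsg.thompsonSubgroupAOf (T : Subgroup X) : Set X) = ⊤ := by
  set J := Cfsg.thompsonSubgroupAOf (T : Subgroup X) with hJ
  set Y := Subgroup.normalClosure (J : Set X) with hY
  haveI hYn : Y.Normal := Subgroup.normalClosure_normal
  set S : Subgroup X := (T : Subgroup X) ⊓ Y with hS
  have hJT : J ≤ T := Subgroup.map_subtype_le _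
  have hJY : J ≤ Y := Subgroup.le_normalClosure
  have hJS : J ≤ S := le_inf hJT hJY
  have hN : Subgroup.normalizer (S : Set X) ≤ Subgroup.normalizer (J : Set X) := by
    intro g hg
    have key : ∀ g ∈ Subgroup.normalizer (S : Set X), ∀ j ∈ J, g * j * g⁻¹ ∈ J := by
      intro g hg j hj
      have h1 : J ≤ J.comap (MulAut.conj g).toMonoidHom := by
        conv_lhs => rw [hJ, thompsonA_eq]
        refine sSup_le fun A hA => ?_
        rw [← Subgroup.map_le_iff_le_comap, hJ, thompsonA_eq]
        refine le_sSup (AT_conj inf_le_left hA ?_ hg)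
        have h2 : A ≤ J := by
          rw [hJ, thompsonA_eq]
          exact le_sSup hA
        exact h2.trans hJS
      exact h1 hj
    rw [Subgroup.mem_normalizer_iff]
    intro h
    constructor
    · exact key g hg h
    · intro hh
      have := key g⁻¹ (Subgroup.inv_mem _ hg) _ hh
      simpa [mul_assoc] using this
  have h1 := Sylow.normalizer_sup_eq_top (Cfsg.Agent.Lib.Core.SylowFacts.sylowOfNormal T Y)
  rw [Cfsg.Agent.Lib.Core.SylowFacts.map_sylowOfNormal] at h1
  rw [eq_top_iff, ← h1, sup_comm]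
  exact sup_le_sup_left hN _

section data

variable {Z W V : Subgroup X}

/-- `core_X C_X(Z) = C_X(⟨Z^X⟩)`. -/
theorem normalCore_eq (hW : W = Subgroup.normalClosure (Z : Set X)) :
    (Subgroup.centralizer (Z : Set X)).normalCore = Subgroup.centralizer (W : Set X) := by
  subst hW
  haveI : (Subgroup.normalClosure (Z : Set X)).Normal := Subgroup.normalClosure_normal
  apply le_antisymm
  · have h1 : (Z : Set X) ⊆ Subgroup.centralizer
        ((Subgroup.centralizer (Z : Set X)).normalCore : Set X) := by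
      intro z hz
      rw [SetLike.mem_coe, Subgroup.mem_centralizer_iff]
      intro c hc
      exact (Subgroup.mem_centralizer_iff.mp ((Subgroup.normalCore_le _) hc) z hz).symm
    have h2 := Subgroup.normalClosure_le_normal h1
    rw [Subgroup.le_centralizer_iff] at h2
    exact h2
  · rw [Subgroup.normal_le_normalCore]
    exact Subgroup.centralizer_le Subgroup.le_normalClosure

/-- `O₂(X / core C_X(Z(T))) = 1`. -/
theorem pCore_quot_eq_bot (T : Sylow 2 X) (N : Subgroup X) [hNn : N.Normal]
    (hN : N = (Subgroup.centralizer (((T : Subgroup X) ⊓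
      Subgroup.centralizer ((T : Subgroup X) : Set X) : Subgroup X) : Set X)).normalCore) :
    Cfsg.pCore 2 (X ⧸ N) = ⊥ := by
  set Z : Subgroup X := (T : Subgroup X) ⊓ Subgroup.centralizer ((T : Subgroup X) : Set X) with hZ
  let π : X →* X ⧸ N := QuotientGroup.mk' N
  have hπ : Function.Surjective π := QuotientGroup.mk'_surjective N
  let T' : Sylow 2 (X ⧸ N) := T.mapSurjective hπ
  have hT' : (T' : Subgroup (X ⧸ N)) = (T : Subgroup X).map π := Sylow.coe_mapSurjective _ _
  set D : Subgroup X := (Cfsg.pCore 2 (X ⧸ N)).comap π with hD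
  haveI hDn : D.Normal := Subgroup.Normal.comap inferInstance π
  have hDle : D ≤ Subgroup.centralizer (Z : Set X) := by
    intro g hg
    have h1 : π g ∈ (T' : Subgroup (X ⧸ N)) := pCore_le_sylow T' hg
    rw [hT'] at h1
    obtain ⟨t, ht, hte⟩ := h1
    have h2 : t⁻¹ * g ∈ N := by
      rw [← QuotientGroup.ker_mk' N, MonoidHom.mem_ker, map_mul, map_inv]
      show (π t)⁻¹ * π g = 1
      rw [hte, inv_mul_cancel]
    have h3 : t⁻¹ * g ∈ Subgroup.centralizer (Z : Set X) := by
      have := (Subgroup.normalCore_le _) (hN ▸ h2)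
      exact this
    have h4 : t ∈ Subgroup.centralizer (Z : Set X) := by
      rw [Subgroup.mem_centralizer_iff]
      intro z hz
      exact (Subgroup.mem_centralizer_iff.mp hz.2 t ht).symm
    have h5 := Subgroup.mul_mem _ h4 h3
    simpa using h5
  have h6 : D ≤ N := by
    rw [hN, Subgroup.normal_le_normalCore]
    exact hDle
  rw [eq_bot_iff]
  intro q hq
  obtain ⟨g, rfl⟩ := hπ q
  have h7 : g ∈ N := h6 hq
  rw [Subgroup.mem_bot]
  have : g ∈ π.ker := by rwa [QuotientGroup.ker_mk']
  exact this

/-- A `2'`-element centralizing `Ω₁(W)` centralizes the abelian group `W`. -/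
theorem conj_eq_of_omega (hWn : W.Normal) (hWc : ∀ x ∈ W, ∀ y ∈ W, x * y = y * x) {y : X}
    (hy' : ∀ u ∈ W, u ^ 2 = 1 → y * u * y⁻¹ = u) (hodd : Odd (orderOf y)) :
    ∀ (k : ℕ), ∀ w ∈ W, w ^ 2 ^ k = 1 → y * w * y⁻¹ = w := by
  intro k
  induction k with
  | zero =>
    intro w _ h
    rw [pow_zero, pow_one] at h
    rw [h]
    group
  | succ k ih =>
    intro w hw h
    have hs : y * (w ^ 2) * y⁻¹ = w ^ 2 := by
      apply ih _ (W.pow_mem hw 2)
      rw [← pow_mul, ← pow_succ']
      exact h
    set w' := y * w * y⁻¹ with hw'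
    have hw'W : w' ∈ W := hWn.conj_mem w hw y
    set u := w' * w⁻¹ with hu
    have huW : u ∈ W := W.mul_mem hw'W (W.inv_mem hw)
    have hcomm : Commute w' w⁻¹ := hWc _ hw'W _ (W.inv_mem hw)
    have hu2 : u ^ 2 = 1 := by
      rw [hu, hcomm.mul_pow, hw', conj_pow, hs, inv_pow, mul_inv_cancel]
    have hyu := hy' u huW hu2
    have hw'u : w' = u * w := by rw [hu]; group
    have hn : ∀ n : ℕ, y ^ n * w * (y ^ n)⁻¹ = u ^ n * w := by
      intro n
      induction n with
      | zero => simp
      | succ n ihn =>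
        have h1 : y * u ^ n * y⁻¹ = u ^ n := by rw [← conj_pow, hyu]
        calc y ^ (n + 1) * w * (y ^ (n + 1))⁻¹ = y * (y ^ n * w * (y ^ n)⁻¹) * y⁻¹ := by
              rw [pow_succ']
              group
          _ = y * (u ^ n * w) * y⁻¹ := by rw [ihn]
          _ = (y * u ^ n * y⁻¹) * (y * w * y⁻¹) := by group
          _ = u ^ n * (u * w) := by rw [h1, ← hw', hw'u]
          _ = u ^ (n + 1) * w := by rw [pow_succ, mul_assoc (u ^ n) u w]
    have h2 := hn (orderOf y)
    rw [pow_orderOf_eq_one] at h2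
    have h3 : u ^ orderOf y = 1 := by
      have : (1 : X) * w * (1 : X)⁻¹ = w := by group
      rw [this] at h2
      exact (mul_eq_right.mp h2.symm)
    obtain ⟨m, hm⟩ := hodd
    rw [hm, pow_succ, pow_mul, hu2, one_pow, one_mul] at h3
    rw [hw'u, h3, one_mul]

/-- Maximal abelian subgroups offend. -/
theorem offender_of_max {T : Subgroup X} (hWT : W ≤ T) (hWc : IsMulCommutative W) (hVW : V ≤ W)
    {A : Subgroup X} (hA : A ∈ AT T)
    (hCW : Subgroup.centralizer (V : Set X) ≤ Subgroup.centralizer (W : Set X)) :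
    Nat.card V * Nat.card ↥(A ⊓ Subgroup.centralizer (V : Set X)) ≤ offProd V A := by
  set c := A ⊓ Subgroup.centralizer (V : Set X) with hc
  have hWCV : W ≤ Subgroup.centralizer (V : Set X) := by
    intro w hw
    rw [Subgroup.mem_centralizer_iff]
    intro v hv
    exact comm_of_isMulCommutative hWc (hVW hv) hw
  have hcW : c ≤ Subgroup.centralizer (W : Set X) := inf_le_right.trans hCW
  have hsupT : c ⊔ W ≤ T := sup_le (inf_le_left.trans hA.1) hWT
  have hsupc : IsMulCommutative ↥(c ⊔ W) := by
    rw [← Subgroup.closure_eq c, ← Subgroup.closure_eq W, ← Subgroup.closure_union]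
    apply Subgroup.isMulCommutative_closure
    rintro x (hx | hx) y (hy | hy)
    · exact comm_of_isMulCommutative hA.2.1 (hx : x ∈ c).1 (hy : y ∈ c).1
    · exact (Subgroup.mem_centralizer_iff.mp (hcW hx) y hy).symm
    · exact Subgroup.mem_centralizer_iff.mp (hcW hy) x hx
    · exact comm_of_isMulCommutative hWc hx hy
  have h1 := hA.2.2 _ hsupT hsupc
  have hn : c ≤ Subgroup.normalizer (W : Set X) :=
    hcW.trans (Subgroup.centralizer_le_normalizer _)
  have h2 := card_sup_mul_card_inf_of_le_normalizer c W hn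
  have hinf : c ⊓ W = A ⊓ W := by
    apply le_antisymm
    · exact inf_le_inf_right _ inf_le_left
    · rintro x ⟨hxA, hxW⟩
      exact ⟨⟨hxA, hWCV hxW⟩, hxW⟩
  rw [hinf] at h2
  set cW := W ⊓ Subgroup.centralizer (A : Set X) with hcWd
  have h3 : Nat.card ↥(A ⊓ W) ≤ Nat.card cW := by
    apply Subgroup.card_le_of_le
    rintro x ⟨hxA, hxW⟩
    refine ⟨hxW, Subgroup.mem_centralizer_iff.mpr fun a ha => ?_⟩
    exact comm_of_isMulCommutative hA.2.1 ha hxA
  have hn2 : V ≤ Subgroup.normalizer (cW : Set X) := by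
    have hn3 : V ≤ Subgroup.centralizer (cW : Set X) := by
      intro v hv
      rw [Subgroup.mem_centralizer_iff]
      intro y hy
      exact comm_of_isMulCommutative hWc hy.1 (hVW hv)
    exact hn3.trans (Subgroup.centralizer_le_normalizer _)
  have h4 := card_sup_mul_card_inf_of_le_normalizer V cW hn2
  have hinf2 : V ⊓ cW = V ⊓ Subgroup.centralizer (A : Set X) := by
    apply le_antisymm
    · rintro x ⟨hx, -, hx2⟩
      exact ⟨hx, hx2⟩
    · rintro x ⟨hx, hx2⟩
      exact ⟨hx, hVW hx, hx2⟩
  rw [hinf2] at h4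
  have h5 : Nat.card ↥(V ⊔ cW) ≤ Nat.card W :=
    Subgroup.card_le_of_le (sup_le hVW inf_le_left)
  unfold offProd
  set cv := Nat.card ↥(V ⊓ Subgroup.centralizer (A : Set X)) with hcv
  have hpos : 0 < Nat.card W * Nat.card cW := Nat.mul_pos Nat.card_pos Nat.card_pos
  apply Nat.le_of_mul_le_mul_right _ hpos
  calc Nat.card V * Nat.card c * (Nat.card W * Nat.card cW)
      = (Nat.card V * Nat.card cW) * (Nat.card c * Nat.card W) := by ring
    _ = (Nat.card ↥(V ⊔ cW) * cv) * (Nat.card ↥(c ⊔ W) * Nat.card ↥(A ⊓ W)) := by rw [h2, h4]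
    _ ≤ (Nat.card W * cv) * (Nat.card A * Nat.card cW) :=
        Nat.mul_le_mul (Nat.mul_le_mul_right _ h5) (Nat.mul_le_mul h1 h3)
    _ = Nat.card A * cv * (Nat.card W * Nat.card cW) := by ring

end data

section main

variable [Group.IsSolvable X]

theorem second_part (hF : Cfsg.fittingSubgroup X = Cfsg.pCore 2 X) (T : Sylow 2 X)
    (hY : ¬ Subgroup.normalClosure (Cfsg.thompsonSubgroupAOf (T : Subgroup X) : Set X) ≤
      (Subgroup.centralizer (((T : Subgroup X) ⊓
        Subgroup.centralizer ((T : Subgroup X) : Set X) : Subgroup X) : Set X)).normalCore) :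
    ∃ n : ℕ, 1 ≤ n ∧
      Nonempty (↥(Subgroup.normalClosure (Cfsg.thompsonSubgroupAOf (T : Subgroup X) : Set X)) ⧸
        ((Subgroup.centralizer (((T : Subgroup X) ⊓
          Subgroup.centralizer ((T : Subgroup X) : Set X) : Subgroup X) : Set X)).normalCore).subgroupOf
          (Subgroup.normalClosure (Cfsg.thompsonSubgroupAOf (T : Subgroup X) : Set X))
        ≃* (Fin n → Equiv.Perm (Fin 3))) := by
  classical
  set Z : Subgroup X := (T : Subgroup X) ⊓ Subgroup.centralizer ((T : Subgroup X) : Set X) with hZ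
  set core := (Subgroup.centralizer (Z : Set X)).normalCore with hcore
  set J := Cfsg.thompsonSubgroupAOf (T : Subgroup X) with hJ
  set Y := Subgroup.normalClosure (J : Set X) with hYd
  haveI hYn : Y.Normal := Subgroup.normalClosure_normal
  haveI hcoren : core.Normal := Subgroup.normalCore_normal _
  set P := Cfsg.pCore 2 X with hP
  have hPc : Subgroup.centralizer (P : Set X) ≤ P := by
    rw [← hF]
    exact Cfsg.Agent.Lib.Solvable.Fitting.centralizer_fittingSubgroup_le
  have hPT : P ≤ T := pCore_le_sylow T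
  set W := Subgroup.normalClosure (Z : Set X) with hW
  haveI hWn : W.Normal := Subgroup.normalClosure_normal
  have hWle : W ≤ P ⊓ Subgroup.centralizer (P : Set X) := by
    apply Subgroup.normalClosure_le_normal
    intro z hz
    have h1 : z ∈ Subgroup.centralizer (P : Set X) := by
      rw [Subgroup.mem_centralizer_iff]
      intro p hp
      exact (Subgroup.mem_centralizer_iff.mp hz.2 p (hPT hp))
    exact ⟨hPc h1, h1⟩
  have hWT : W ≤ T := (hWle.trans inf_le_left).trans hPT
  have hWc : ∀ x ∈ W, ∀ y ∈ W, x * y = y * x := by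
    intro x hx y hy
    exact Subgroup.mem_centralizer_iff.mp (hWle hy).2 x (hWle hx).1
  have hWab : IsMulCommutative W := ⟨⟨fun a b => Subtype.ext (hWc _ a.2 _ b.2)⟩⟩
  have hWp : IsPGroup 2 W := (pCore_isPGroup (p := 2) (G := X)).to_le (hWle.trans inf_le_left)
  set V := Cfsg.omegaOne 2 W with hV
  haveI hVn : V.Normal := Cfsg.Agent.Lib.QuadAct.Stable.omegaOne_normal hWn
  have hVW : V ≤ W := by
    rw [hV]
    unfold Cfsg.omegaOne
    rw [Subgroup.closure_le]
    exact fun x hx => hx.1
  have hVe : Cfsg.IsElementaryAbelian 2 V :=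
    Cfsg.Agent.Lib.QuadAct.OmegaZ.isElementaryAbelian_closure
      (fun x hx y hy => hWc x hx.1 y hy.1) (fun x hx => hx.2)
  have hcoreW : core = Subgroup.centralizer (W : Set X) := normalCore_eq rfl
  have hO1 : Cfsg.pCore 2 (X ⧸ core) = ⊥ := pCore_quot_eq_bot T core rfl
  -- `C(V) = core`
  have hCV : Subgroup.centralizer (V : Set X) = core := by
    apply le_antisymm
    · let π₀ : X →* X ⧸ core := QuotientGroup.mk' core
      have hπ₀ : Function.Surjective π₀ := QuotientGroup.mk'_surjective core
      have hnorm : (Subgroup.map π₀ (Subgroup.centralizer (V : Set X))).Normal :=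
        Subgroup.Normal.map inferInstance π₀ hπ₀
      have hpg : IsPGroup 2 (Subgroup.map π₀ (Subgroup.centralizer (V : Set X))) := by
        rintro ⟨_, g, hg, rfl⟩
        obtain ⟨k, m, hm, hkm⟩ := Nat.exists_eq_two_pow_mul_odd (orderOf_pos g).ne'
        refine ⟨k, ?_⟩
        apply Subtype.ext
        show π₀ g ^ 2 ^ k = 1
        rw [← map_pow]
        set y := g ^ 2 ^ k with hy
        have hyC : y ∈ Subgroup.centralizer (V : Set X) := Subgroup.pow_mem _ hg _
        have hyord : orderOf y = m := by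
          rw [hy, orderOf_pow_of_dvd (by positivity) (by rw [hkm]; exact dvd_mul_right _ _), hkm]
          exact Nat.mul_div_cancel_left _ (by positivity)
        have hy' : ∀ u ∈ W, u ^ 2 = 1 → y * u * y⁻¹ = u := by
          intro u hu hu2
          have h1 : u ∈ V := Subgroup.subset_closure ⟨hu, hu2⟩
          rw [← (Subgroup.mem_centralizer_iff.mp hyC u h1)]
          group
        have h2 : y ∈ core := by
          rw [hcoreW, Subgroup.mem_centralizer_iff]
          intro w hw
          obtain ⟨k', hk'⟩ := hWp ⟨w, hw⟩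
          have h3 : w ^ 2 ^ k' = 1 := congrArg Subtype.val hk'
          have h4 := conj_eq_of_omega hWn hWc hy' (hyord ▸ hm) k' w hw h3
          calc w * y = (y * w * y⁻¹) * y := by rw [h4]
            _ = y * w := by group
        show π₀ y = 1
        rw [← MonoidHom.mem_ker, QuotientGroup.ker_mk']
        exact h2
      have h5 := le_pCore hnorm hpg
      rw [hO1, le_bot_iff, Subgroup.map_eq_bot_iff, QuotientGroup.ker_mk'] at h5
      exact h5
    · rw [hcoreW]
      exact Subgroup.centralizer_le hVW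
  have hO : Cfsg.pCore 2 (X ⧸ Subgroup.centralizer (V : Set X)) = ⊥ :=
    pCore_quot_eq_bot T _ hCV
  have hsep : Cfsg.IsPSolvable 2 X := Cfsg.Agent.Lib.Core.PSolvable2.isPSolvable_of_isSolvable
  have hTp : IsPGroup 2 (T : Subgroup X) := T.isPGroup'
  -- every member of `AT T` is a best offender
  have hbest : ∀ A ∈ AT (T : Subgroup X), Cfsg.IsBestOffenderOn 2 V A := by
    intro A hA
    refine Cfsg.Agent.Lib.SolvFF.Core.isBestOffenderOn_of_offender hsep hVe hO ?_
      (hTp.to_le hA.1) (offender_of_max hWT hWab hVW hA ?_)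
    · have : ⁅A, A⁆ = ⊥ := by
        rw [eq_bot_iff, Subgroup.commutator_le]
        intro a ha b hb
        rw [Subgroup.mem_bot, commutatorElement_eq_one_iff_mul_comm]
        exact comm_of_isMulCommutative hA.2.1 ha hb
      rw [this]
      exact bot_le
    · rw [hCV, hcoreW]
  obtain ⟨M, _, _, _, ρ, ι, D⟩ := Cfsg.Agent.Lib.QuadAct.FFQuot.exists_coordQ (p := 2) hVe
  set L := Y.map (piV V) with hL
  have hLn : L.Normal := hYn.map _ piV_surj
  have hsep' : Cfsg.IsPSolvable 2 (X ⧸ Subgroup.centralizer (V : Set X)) :=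
    Cfsg.Agent.Lib.Core.PSolvable.isPSolvable_of_surjective _ piV_surj hsep
  -- generation by best offenders
  have hgen : ∀ g : L, g ∈ ⨆ A : {A : Subgroup L // Best (ρ.comp L.subtype) A},
      (A : Subgroup L) := by
    have h1 : L ≤ (⨆ A : {A : Subgroup L // Best (ρ.comp L.subtype) A},
        (A : Subgroup L)).map L.subtype := by
      rw [hL, Subgroup.map_le_iff_le_comap, hYd, Subgroup.normalClosure, Subgroup.closure_le]
      intro x hx
      obtain ⟨j, hj, hjx⟩ := Group.mem_conjugatesOfSet_iff.mp hx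
      obtain ⟨g, rfl⟩ := isConj_iff.mp hjx
      have h2 : J ≤ (Subgroup.comap (piV V) ((⨆ A : {A : Subgroup L // Best (ρ.comp L.subtype) A},
          (A : Subgroup L)).map L.subtype)).comap (MulAut.conj g).toMonoidHom := by
        rw [hJ, thompsonA_eq]
        refine sSup_le fun A hA => ?_
        rw [← Subgroup.map_le_iff_le_comap, ← Subgroup.map_le_iff_le_comap]
        have h3 : Best ρ (A.map (piV V)) := best_map_of_isBest D (hbest A hA)
        have h4 := best_conj h3 (piV V g)
        have hAJ : A ≤ J := by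
          rw [hJ, thompsonA_eq]
          exact le_sSup hA
        have e : (A.map (MulAut.conj g).toMonoidHom).map (piV V) =
            (A.map (piV V)).map (MulAut.conj (piV V g)).toMonoidHom := by
          rw [Subgroup.map_map, Subgroup.map_map]
          congr 1
        rw [e]
        have hle : (A.map (piV V)).map (MulAut.conj (piV V g)).toMonoidHom ≤ L := by
          rw [← e]
          apply Subgroup.map_mono
          rintro _ ⟨a, ha, rfl⟩
          exact hYn.conj_mem a (Subgroup.le_normalClosure (hAJ ha)) g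
        have h5 := best_comp_subtype h4 hle
        have h6 := le_iSup (fun A : {A : Subgroup L // Best (ρ.comp L.subtype) A} =>
          (A : Subgroup L)) ⟨_, h5⟩
        have h7 := Subgroup.map_mono (f := L.subtype) h6
        rwa [Subgroup.map_subgroupOf_eq_of_le hle] at h7
      exact h2 hj
    intro g
    obtain ⟨g', hg', e⟩ := h1 g.2
    have : g' = g := Subtype.ext e
    rwa [← this]
  obtain ⟨n, ⟨e⟩⟩ := exists_equiv_pi (D.faithL L) (hS1_of hsep' hO hLn) hgen
  -- the quotient
  let f : Y →* L := ((piV V).comp Y.subtype).codRestrict L (fun y => ⟨y, y.2, rfl⟩)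
  have hfs : Function.Surjective f := by
    rintro ⟨_, y, hy, rfl⟩
    exact ⟨⟨y, hy⟩, rfl⟩
  have hfk : f.ker = core.subgroupOf Y := by
    ext y
    rw [MonoidHom.mem_ker, Subgroup.mem_subgroupOf, ← hCV]
    constructor
    · intro h
      have h1 : piV V (y : X) = 1 := congrArg Subtype.val h
      rw [← MonoidHom.mem_ker, piV_ker] at h1
      exact h1
    · intro h
      apply Subtype.ext
      show piV V (y : X) = 1
      rw [← MonoidHom.mem_ker, piV_ker]
      exact h
  have e2 : (Y ⧸ core.subgroupOf Y) ≃* L :=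
    (QuotientGroup.quotientMulEquivOfEq hfk.symm).trans
      (QuotientGroup.quotientKerEquivOfSurjective f hfs)
  refine ⟨n, ?_, ⟨e2.trans e⟩⟩
  by_contra hn
  have hn0 : n = 0 := by omega
  subst hn0
  apply hY
  have hLb : L = ⊥ := by
    rw [eq_bot_iff]
    intro l hl
    have h1 : e ⟨l, hl⟩ = e 1 := Subsingleton.elim _ _
    have h2 : (⟨l, hl⟩ : L) = 1 := e.injective h1
    exact congrArg Subtype.val h2
  have h3 : Y ≤ (piV V).ker := (Subgroup.map_eq_bot_iff _).mp hLb
  rwa [piV_ker, hCV] at h3

/-- The theorem. -/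
theorem main_thm (hF : Cfsg.fittingSubgroup X = Cfsg.pCore 2 X) (T : Sylow 2 X) :
    ((Subgroup.centralizer (((T : Subgroup X) ⊓ Subgroup.centralizer ((T : Subgroup X) : Set X) : Subgroup X) : Set X)).normalCore
        ⊔ Subgroup.normalClosure (Cfsg.thompsonSubgroupAOf (T : Subgroup X) : Set X)
        ⊔ Subgroup.normalizer (Cfsg.thompsonSubgroupAOf (T : Subgroup X) : Set X) = ⊤) ∧
    (Subgroup.normalClosure (Cfsg.thompsonSubgroupAOf (T : Subgroup X) : Set X)
        ≤ (Subgroup.centralizer (((T : Subgroup X) ⊓ Subgroup.centralizer ((T : Subgroup X) : Set X) : Subgroup X) : Set X)).normalCore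
      ∨ ∃ n : ℕ, 1 ≤ n ∧
        Nonempty (↥(Subgroup.normalClosure (Cfsg.thompsonSubgroupAOf (T : Subgroup X) : Set X)) ⧸
            ((Subgroup.centralizer (((T : Subgroup X) ⊓ Subgroup.centralizer ((T : Subgroup X) : Set X) : Subgroup X) : Set X)).normalCore).subgroupOf
              (Subgroup.normalClosure (Cfsg.thompsonSubgroupAOf (T : Subgroup X) : Set X))
          ≃* (Fin n → Equiv.Perm (Fin 3)))) := by
  constructor
  · rw [eq_top_iff, ← normalClosure_sup_normalizer T]
    exact sup_le_sup_right le_sup_right _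
  · by_cases hY : Subgroup.normalClosure (Cfsg.thompsonSubgroupAOf (T : Subgroup X) : Set X) ≤
      (Subgroup.centralizer (((T : Subgroup X) ⊓
        Subgroup.centralizer ((T : Subgroup X) : Set X) : Subgroup X) : Set X)).normalCore
    · exact Or.inl hY
    · exact Or.inr (second_part hF T hY)

end main

end Cfsg.Agent.Lib.SolvFF.Main
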